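/-
Symplectic transvections over the field with two elements.
-/
import Mathlib
import Cfsg.Prelude.Def_SporadicB

set_option autoImplicit false
set_option linter.unusedVariables false
set_option linter.unusedSectionVars false

namespace CfsgLib.Sp2

open Matrix Cfsg

variable {n : ℕ}

abbrev Idx (n : ℕ) := Fin n ⊕ Fin n
abbrev Vc (n : ℕ) := Idx n → ZMod 2
abbrev Mt (n : ℕ) := Matrix (Idx n) (Idx n) (ZMod 2)
abbrev JJ (n : ℕ) : Mt n := Matrix.J (Fin n) (ZMod 2)
abbrev SpG (n : ℕ) := Matrix.symplecticGroup (Fin n) (ZMod 2)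

theorem z2_ne {x : ZMod 2} (h : x ≠ 0) : x = 1 := by
  revert x
  decide

theorem z2_cases (x : ZMod 2) : x = 0 ∨ x = 1 := by
  revert x
  decide

theorem z2_add_self (x : ZMod 2) : x + x = 0 := CharTwo.add_self_eq_zero x

/-- The alternating form. -/
def bf (x y : Vc n) : ZMod 2 := ∑ i : Fin n, (x (Sum.inr i) * y (Sum.inl i) + x (Sum.inl i) * y (Sum.inr i))

theorem J_inl (x : Vc n) (i : Fin n) : (JJ n *ᵥ x) (Sum.inl i) = x (Sum.inr i) := by
  have h : (JJ n *ᵥ x) (Sum.inl i) = - x (Sum.inr i) := by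
    simp [JJ, Matrix.J, Matrix.mulVec, dotProduct, Fintype.sum_sum_type, Matrix.one_apply]
  rw [h]
  exact ZMod.neg_eq_self_mod_two _

theorem J_inr (x : Vc n) (i : Fin n) : (JJ n *ᵥ x) (Sum.inr i) = x (Sum.inl i) := by
  simp [JJ, Matrix.J, Matrix.mulVec, dotProduct, Fintype.sum_sum_type, Matrix.one_apply]

theorem dot_J (x y : Vc n) : (JJ n *ᵥ x) ⬝ᵥ y = bf x y := by
  unfold bf dotProduct
  rw [Fintype.sum_sum_type, ← Finset.sum_add_distrib]
  apply Finset.sum_congr rfl
  intro i _
  rw [J_inl, J_inr]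

theorem bf_add_left (x y z : Vc n) : bf (x + y) z = bf x z + bf y z := by
  unfold bf
  rw [← Finset.sum_add_distrib]
  apply Finset.sum_congr rfl
  intro i _
  simp only [Pi.add_apply]
  ring

theorem bf_add_right (x y z : Vc n) : bf x (y + z) = bf x y + bf x z := by
  unfold bf
  rw [← Finset.sum_add_distrib]
  apply Finset.sum_congr rfl
  intro i _
  simp only [Pi.add_apply]
  ring

theorem bf_smul_left (c : ZMod 2) (x z : Vc n) : bf (c • x) z = c * bf x z := by
  unfold bf
  rw [Finset.mul_sum]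
  apply Finset.sum_congr rfl
  intro i _
  simp only [Pi.smul_apply, smul_eq_mul]
  ring

theorem bf_smul_right (c : ZMod 2) (x z : Vc n) : bf x (c • z) = c * bf x z := by
  unfold bf
  rw [Finset.mul_sum]
  apply Finset.sum_congr rfl
  intro i _
  simp only [Pi.smul_apply, smul_eq_mul]
  ring

theorem bf_comm (x y : Vc n) : bf x y = bf y x := by
  unfold bf
  apply Finset.sum_congr rfl
  intro i _
  ring

theorem bf_self (x : Vc n) : bf x x = 0 := by
  unfold bf
  apply Finset.sum_eq_zero
  intro i _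
  rw [mul_comm (x (Sum.inl i))]
  exact z2_add_self _

theorem bf_zero_left (y : Vc n) : bf 0 y = 0 := by
  unfold bf
  simp

theorem bf_single_inr (v : Vc n) (i : Fin n) : bf v (Pi.single (Sum.inr i) 1) = v (Sum.inl i) := by
  unfold bf
  rw [Finset.sum_eq_single i]
  · simp
  · intro j _ hj
    simp [Pi.single_apply, hj]
  · intro h
    exact absurd (Finset.mem_univ i) h

theorem bf_single_inl (v : Vc n) (i : Fin n) : bf v (Pi.single (Sum.inl i) 1) = v (Sum.inr i) := by
  unfold bf
  rw [Finset.sum_eq_single i]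
  · simp
  · intro j _ hj
    simp [Pi.single_apply, hj]
  · intro h
    exact absurd (Finset.mem_univ i) h

theorem bf_single (v : Vc n) (s : Idx n) : bf v (Pi.single s.swap 1) = v s := by
  rcases s with i | i
  · exact bf_single_inr v i
  · exact bf_single_inl v i

theorem exists_ne_of_ne {v : Vc n} (hv : v ≠ 0) : ∃ s, v s = 1 := by
  by_contra h
  push_neg at h
  apply hv
  funext s
  rcases z2_cases (v s) with h1 | h1
  · exact h1
  · exact absurd h1 (h s)

theorem nondeg {v : Vc n} (hv : v ≠ 0) : ∃ x : Vc n, bf v x = 1 := by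
  obtain ⟨s, hs⟩ := exists_ne_of_ne hv
  exact ⟨_, (bf_single v s).trans hs⟩

theorem vec_add_self (v : Vc n) : v + v = 0 := by
  funext i
  exact z2_add_self _

theorem add_add_cancel' (u v : Vc n) : u + (u + v) = v := by
  rw [← add_assoc, vec_add_self, zero_add]

/-! ### Matrices from their action -/

theorem mat_ext {M N : Mt n} (h : ∀ x, M *ᵥ x = N *ᵥ x) : M = N := by
  ext i j
  have := congrFun (h (Pi.single j 1)) i
  simpa [Matrix.mulVec_single_one] using this

theorem dot_form (A : Mt n) (x y : Vc n) : x ⬝ᵥ ((Aᵀ * JJ n * A) *ᵥ y) = bf (A *ᵥ y) (A *ᵥ x) := by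
  rw [← Matrix.mulVec_mulVec, ← Matrix.mulVec_mulVec, Matrix.dotProduct_mulVec, Matrix.vecMul_transpose,
    dotProduct_comm, dot_J]

theorem dot_form_J (x y : Vc n) : x ⬝ᵥ (JJ n *ᵥ y) = bf y x := by
  rw [dotProduct_comm, dot_J]

theorem mem_of_preserve {A : Mt n} (h : ∀ x y, bf (A *ᵥ x) (A *ᵥ y) = bf x y) : A ∈ SpG n := by
  rw [SymplecticGroup.mem_iff']
  apply mat_ext
  intro y
  ext s
  have h1 := dot_form A (Pi.single s 1) y
  rw [h, ← dot_form_J, single_one_dotProduct, single_one_dotProduct] at h1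
  exact h1

/-- The action on vectors. -/
def act (g : SpG n) (x : Vc n) : Vc n := (g : Mt n) *ᵥ x

theorem bf_act (g : SpG n) (x y : Vc n) : bf (act g x) (act g y) = bf x y := by
  have h1 := SymplecticGroup.mem_iff'.mp g.2
  have h2 : ∀ s : Idx n, (Pi.single s 1 : Vc n) ⬝ᵥ (((g : Mt n)ᵀ * JJ n * (g : Mt n)) *ᵥ x) = bf (act g x) (act g (Pi.single s 1)) :=
    fun s => dot_form _ _ _
  have key : ∀ z : Vc n, z ⬝ᵥ (JJ n *ᵥ x) = bf (act g x) (act g z) := by
    intro z
    have h1' : (g : Mt n)ᵀ * JJ n * (g : Mt n) = JJ n := h1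
    calc z ⬝ᵥ (JJ n *ᵥ x) = z ⬝ᵥ (((g : Mt n)ᵀ * JJ n * (g : Mt n)) *ᵥ x) := by rw [h1']
      _ = _ := dot_form _ _ _
  rw [← key, dot_form_J, bf_comm]

theorem act_mul (g h : SpG n) (x : Vc n) : act (g * h) x = act g (act h x) := by
  show ((g : Mt n) * (h : Mt n)) *ᵥ x = (g : Mt n) *ᵥ ((h : Mt n) *ᵥ x)
  rw [Matrix.mulVec_mulVec]

theorem act_one (x : Vc n) : act (1 : SpG n) x = x := by
  show (1 : Mt n) *ᵥ x = x
  rw [Matrix.one_mulVec]

theorem act_inv_act (g : SpG n) (x : Vc n) : act g⁻¹ (act g x) = x := by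
  rw [← act_mul, inv_mul_cancel, act_one]

theorem act_act_inv (g : SpG n) (x : Vc n) : act g (act g⁻¹ x) = x := by
  rw [← act_mul, mul_inv_cancel, act_one]

theorem act_add (g : SpG n) (x y : Vc n) : act g (x + y) = act g x + act g y := Matrix.mulVec_add _ _ _

theorem act_smul (g : SpG n) (c : ZMod 2) (x : Vc n) : act g (c • x) = c • act g x := Matrix.mulVec_smul _ _ _

theorem sp_ext {g h : SpG n} (H : ∀ x, act g x = act h x) : g = h :=
  Subtype.ext (mat_ext H)

/-! ### Transvections -/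

/-- The matrix of a transvection. -/
def T (v : Vc n) : Mt n := 1 + vecMulVec v (JJ n *ᵥ v)

theorem T_mulVec (v x : Vc n) : T v *ᵥ x = x + bf v x • v := by
  unfold T
  rw [Matrix.add_mulVec, Matrix.one_mulVec, vecMulVec_mulVec, dot_J, op_smul_eq_smul]

theorem T_preserve (v x y : Vc n) : bf (T v *ᵥ x) (T v *ᵥ y) = bf x y := by
  rw [T_mulVec, T_mulVec, bf_add_left, bf_add_right, bf_add_right, bf_smul_left, bf_smul_left, bf_smul_right,
    bf_smul_right, bf_self, bf_comm x v]
  have := z2_add_self (bf v x * bf v y)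
  have e : bf x y + bf v y * bf v x + (bf v x * bf v y + bf v x * (bf v y * 0)) = bf x y + (bf v x * bf v y + bf v x * bf v y) := by ring
  rw [e, this, add_zero]

/-- The transvection as a group element. -/
def tv (v : Vc n) : SpG n := ⟨T v, mem_of_preserve (T_preserve v)⟩

theorem act_tv (v x : Vc n) : act (tv v) x = x + bf v x • v := T_mulVec v x

theorem tv_zero : tv (0 : Vc n) = 1 := by
  apply sp_ext
  intro x
  rw [act_tv, act_one, bf_zero_left]
  simp

theorem tv_sq (v : Vc n) : tv v * tv v = 1 := by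
  apply sp_ext
  intro x
  rw [act_mul, act_tv, act_tv, act_one, bf_add_right, bf_smul_right, bf_self, mul_zero, add_zero, add_assoc,
    ← add_smul, z2_add_self, zero_smul, add_zero]

theorem tv_inv (v : Vc n) : (tv v)⁻¹ = tv v := inv_eq_of_mul_eq_one_left (tv_sq v)

theorem conj_tv (g : SpG n) (v : Vc n) : g * tv v * g⁻¹ = tv (act g v) := by
  rw [mul_inv_eq_iff_eq_mul]
  apply sp_ext
  intro x
  rw [act_mul, act_mul, act_tv, act_tv, act_add, act_smul, bf_act]

theorem T_sub_one (v : Vc n) : T v - 1 = vecMulVec v (JJ n *ᵥ v) := by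
  unfold T
  abel

theorem rank_T {v : Vc n} (hv : v ≠ 0) : (T v - 1).rank = 1 := by
  rw [T_sub_one]
  unfold Matrix.rank
  rw [finrank_eq_one_iff']
  obtain ⟨x0, hx0⟩ := nondeg hv
  have hact : ∀ x, vecMulVec v (JJ n *ᵥ v) *ᵥ x = bf v x • v := by
    intro x
    rw [vecMulVec_mulVec, dot_J, op_smul_eq_smul]
  have hmem : v ∈ LinearMap.range (vecMulVec v (JJ n *ᵥ v)).mulVecLin := by
    refine ⟨x0, ?_⟩
    rw [Matrix.mulVecLin_apply, hact, hx0, one_smul]
  refine ⟨⟨v, hmem⟩, fun h => hv (congrArg Subtype.val h), ?_⟩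
  rintro ⟨w, x, rfl⟩
  refine ⟨bf v x, Subtype.ext ?_⟩
  show bf v x • v = vecMulVec v (JJ n *ᵥ v) *ᵥ x
  rw [hact]

/-- Rank one means a transvection. -/
theorem form_of_rank (g : SpG n) (h : ((g : Mt n) - 1).rank = 1) : ∃ v : Vc n, v ≠ 0 ∧ g = tv v := by
  unfold Matrix.rank at h
  rw [finrank_eq_one_iff'] at h
  obtain ⟨⟨u, hu⟩, hu0, huall⟩ := h
  have hu0' : u ≠ 0 := fun e => hu0 (Subtype.ext e)
  -- the functional
  have hex : ∀ x : Vc n, ∃ c : ZMod 2, ((g : Mt n) - 1) *ᵥ x = c • u := by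
    intro x
    obtain ⟨c, hc⟩ := huall ⟨((g : Mt n) - 1) *ᵥ x, ⟨x, rfl⟩⟩
    exact ⟨c, (congrArg Subtype.val hc).symm⟩
  choose w hw using hex
  have hact : ∀ x, act g x = x + w x • u := by
    intro x
    rw [← hw x, Matrix.sub_mulVec, Matrix.one_mulVec]
    show (g : Mt n) *ᵥ x = x + ((g : Mt n) *ᵥ x - x)
    abel
  -- some value of w is nonzero
  obtain ⟨x0, hx0⟩ := nondeg hu0'
  have hw0 : ∃ y0, w y0 = 1 := by
    by_contra hall
    push_neg at hall
    have hall' : ∀ y, w y = 0 := fun y => by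
      rcases z2_cases (w y) with h1 | h1
      · exact h1
      · exact absurd h1 (hall y)
    have hfix : ∀ x, act g x = x := fun x => by
      rw [hact, hall', zero_smul, add_zero]
    have h2 := bf_act g
    obtain ⟨v0, hv0⟩ := hu
    have h3 : ((g : Mt n) - 1) *ᵥ v0 = 0 := by
      rw [Matrix.sub_mulVec, Matrix.one_mulVec]
      have := hfix v0
      show (g : Mt n) *ᵥ v0 - v0 = 0
      rw [show (g : Mt n) *ᵥ v0 = v0 from this, sub_self]
    apply hu0'
    rw [← hv0, Matrix.mulVecLin_apply, h3]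
  obtain ⟨y0, hy0⟩ := hw0
  -- the relation from the form
  have hrel : ∀ x y, w y * bf u x + w x * bf u y = 0 := by
    intro x y
    have h1 := bf_act g x y
    rw [hact, hact, bf_add_left, bf_add_right, bf_add_right, bf_smul_left, bf_smul_left, bf_smul_right,
      bf_smul_right, bf_self, bf_comm x u] at h1
    have e : bf x y + w y * bf u x + (w x * bf u y + w x * (w y * 0)) = bf x y + (w y * bf u x + w x * bf u y) := by ring
    rw [e] at h1
    have h2 : bf x y + (w y * bf u x + w x * bf u y) = bf x y + 0 := by rw [h1, add_zero]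
    exact add_left_cancel h2
  -- compare the functionals
  have hb : ∀ x, bf u x = w x * bf u y0 := by
    intro x
    have h1 := hrel x y0
    rw [hy0, one_mul] at h1
    have h2 := z2_add_self (w x * bf u y0)
    exact add_right_cancel (h1.trans h2.symm)
  have hc : bf u y0 = 1 := by
    have h1 := hb x0
    rw [hx0] at h1
    rcases z2_cases (bf u y0) with h2 | h2
    · rw [h2, mul_zero] at h1
      exact absurd h1 (by decide)
    · exact h2
  refine ⟨u, hu0', sp_ext fun x => ?_⟩
  rw [hact, act_tv, hb, hc, mul_one]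

/-- The set of transvections. -/
def DD (n : ℕ) : Set (SpG n) := {g | ((g : Mt n) - 1).rank = 1}

theorem tv_mem {v : Vc n} (hv : v ≠ 0) : tv v ∈ DD n := rank_T hv

theorem mem_DD_iff {g : SpG n} : g ∈ DD n ↔ ∃ v : Vc n, v ≠ 0 ∧ g = tv v := by
  constructor
  · exact form_of_rank g
  · rintro ⟨v, hv, rfl⟩
    exact tv_mem hv

theorem tv_ne_one {v : Vc n} (hv : v ≠ 0) : tv v ≠ 1 := by
  intro h
  obtain ⟨x, hx⟩ := nondeg hv
  have h1 := act_tv v x
  rw [h, act_one, hx, one_smul] at h1
  apply hv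
  have h2 : x + 0 = x + v := by rw [add_zero]; exact h1
  exact (add_left_cancel h2).symm

theorem order_tv {v : Vc n} (hv : v ≠ 0) : orderOf (tv v) = 2 := by
  haveI : Fact (Nat.Prime 2) := ⟨Nat.prime_two⟩
  apply orderOf_eq_prime
  · rw [pow_two, tv_sq]
  · exact tv_ne_one hv

theorem act_ne_zero (g : SpG n) {v : Vc n} (hv : v ≠ 0) : act g v ≠ 0 := by
  intro h
  obtain ⟨x, hx⟩ := nondeg hv
  have h1 := bf_act g v x
  rw [h, bf_zero_left, hx] at h1
  exact absurd h1 (by decide)

theorem comm_tv {u v : Vc n} (h : bf u v = 0) : tv u * tv v = tv v * tv u := by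
  apply sp_ext
  intro x
  rw [act_mul, act_mul, act_tv, act_tv, act_tv, act_tv, bf_add_right, bf_add_right, bf_smul_right, bf_smul_right,
    h, bf_comm v u, h, mul_zero, mul_zero, add_zero, add_zero]
  abel

theorem braid_tv {u v : Vc n} (h : bf u v = 1) : tv u * tv v * tv u = tv v * tv u * tv v := by
  have e1 : tv u * tv v * tv u = tv (u + v) := by
    have h1 := conj_tv (tv u) v
    rw [tv_inv] at h1
    rw [h1, act_tv, h, one_smul, add_comm]
  have e2 : tv v * tv u * tv v = tv (u + v) := by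
    have h1 := conj_tv (tv v) u
    rw [tv_inv] at h1
    rw [h1, act_tv, bf_comm, h, one_smul]
  rw [e1, e2]

theorem cube_tv {u v : Vc n} (h : bf u v = 1) : (tv u * tv v) ^ 3 = 1 := by
  have hb := braid_tv h
  have e : (tv u * tv v) ^ 3 = (tv u * tv v * tv u) * (tv v * tv u * tv v) := by
    simp only [pow_succ, pow_zero, one_mul, mul_assoc]
  rw [e, ← hb]
  have e2 : tv u * tv v * tv u * (tv u * tv v * tv u) = tv u * tv v * (tv u * tv u) * tv v * tv u := by
    simp only [mul_assoc]
  rw [e2, tv_sq, mul_one, mul_assoc (tv u), tv_sq, mul_one, tv_sq]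

theorem sq_tv {u v : Vc n} (h : bf u v = 0) : (tv u * tv v) ^ 2 = 1 := by
  rw [pow_two]
  have e : tv u * tv v * (tv u * tv v) = tv u * (tv v * tv u) * tv v := by simp only [mul_assoc]
  rw [e, ← comm_tv h]
  have e2 : tv u * (tv u * tv v) * tv v = (tv u * tv u) * (tv v * tv v) := by simp only [mul_assoc]
  rw [e2, tv_sq, tv_sq, one_mul]

/-- Separation of two different non-zero vectors by the form, on a set of coordinates. -/
theorem exists_z {p q : Vc n} (hp : p ≠ 0) (hq : q ≠ 0) (hpq : p ≠ q) :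
    ∃ s1 s2 : Idx n, (p s1 = 1 ∨ q s1 = 1) ∧ (p s2 = 1 ∨ q s2 = 1) ∧
      ((bf p (Pi.single s1.swap 1) = 1 ∧ bf q (Pi.single s1.swap 1) = 1) ∨
       (bf p (Pi.single s1.swap 1 + Pi.single s2.swap 1) = 1 ∧ bf q (Pi.single s1.swap 1 + Pi.single s2.swap 1) = 1)) := by
  obtain ⟨c, hc⟩ : ∃ c, p c ≠ q c := by
    by_contra h
    push_neg at h
    exact hpq (funext h)
  obtain ⟨a, ha⟩ := exists_ne_of_ne hp
  obtain ⟨b, hb⟩ := exists_ne_of_ne hq
  rcases z2_cases (p c) with h1 | h1
  · -- p c = 0, q c = 1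
    have h2 : q c = 1 := by
      rcases z2_cases (q c) with h3 | h3
      · exact absurd (h1.trans h3.symm) hc
      · exact h3
    refine ⟨a, c, Or.inl ha, Or.inr h2, ?_⟩
    rcases z2_cases (q a) with h3 | h3
    · right
      rw [bf_add_right, bf_add_right, bf_single, bf_single, bf_single, bf_single, ha, h1, h3, h2]
      decide
    · left
      rw [bf_single, bf_single, ha, h3]
      exact ⟨rfl, rfl⟩
  · -- p c = 1, q c = 0
    have h2 : q c = 0 := by
      rcases z2_cases (q c) with h3 | h3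
      · exact h3
      · exact absurd (h1.trans h3.symm) hc
    refine ⟨b, c, Or.inr hb, Or.inl h1, ?_⟩
    rcases z2_cases (p b) with h3 | h3
    · right
      rw [bf_add_right, bf_add_right, bf_single, bf_single, bf_single, bf_single, hb, h1, h3, h2]
      decide
    · left
      rw [bf_single, bf_single, hb, h3]
      exact ⟨rfl, rfl⟩

/-! ### Perpendicular vectors and good elements -/

/-- Vanishing on the first `k` coordinate pairs. -/
def KP (k : ℕ) (z : Vc n) : Prop := ∀ i : Fin n, i.val < k → z (Sum.inl i) = 0 ∧ z (Sum.inr i) = 0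

theorem KP_add {k : ℕ} {x y : Vc n} (hx : KP k x) (hy : KP k y) : KP k (x + y) := by
  intro i hi
  refine ⟨?_, ?_⟩
  · show x _ + y _ = 0
    rw [(hx i hi).1, (hy i hi).1, add_zero]
  · show x _ + y _ = 0
    rw [(hx i hi).2, (hy i hi).2, add_zero]

theorem KP_single_swap {k : ℕ} {p q : Vc n} (hp : KP k p) (hq : KP k q) {s : Idx n} (h : p s = 1 ∨ q s = 1) :
    KP k (Pi.single s.swap 1 : Vc n) := by
  have hs : ∀ i : Fin n, i.val < k → s ≠ Sum.inl i ∧ s ≠ Sum.inr i := by
    intro i hi
    constructor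
    · rintro rfl
      rcases h with h | h
      · rw [(hp i hi).1] at h
        exact absurd h (by decide)
      · rw [(hq i hi).1] at h
        exact absurd h (by decide)
    · rintro rfl
      rcases h with h | h
      · rw [(hp i hi).2] at h
        exact absurd h (by decide)
      · rw [(hq i hi).2] at h
        exact absurd h (by decide)
  intro i hi
  obtain ⟨h1, h2⟩ := hs i hi
  refine ⟨?_, ?_⟩
  · rw [Pi.single_apply, if_neg]
    intro e
    apply h2
    rw [← Sum.swap_swap s, ← e]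
    rfl
  · rw [Pi.single_apply, if_neg]
    intro e
    apply h1
    rw [← Sum.swap_swap s, ← e]
    rfl

abbrev ee (i : Fin n) : Vc n := Pi.single (Sum.inl i) 1
abbrev ff (i : Fin n) : Vc n := Pi.single (Sum.inr i) 1

/-- Fixing the first `k` pairs. -/
def FixB (k : ℕ) (g : SpG n) : Prop := ∀ i : Fin n, i.val < k → act g (ee i) = ee i ∧ act g (ff i) = ff i

/-- The generated subgroup. -/
def HH (n : ℕ) : Subgroup (SpG n) := Subgroup.closure (DD n)

theorem tv_mem_HH (v : Vc n) : tv v ∈ HH n := by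
  by_cases hv : v = 0
  · rw [hv, tv_zero]
    exact one_mem _
  · exact Subgroup.subset_closure (tv_mem hv)

def Good (k : ℕ) (h : SpG n) : Prop := h ∈ HH n ∧ FixB k h

theorem good_one (k : ℕ) : Good k (1 : SpG n) :=
  ⟨one_mem _, fun i _ => ⟨act_one _, act_one _⟩⟩

theorem good_mul {k : ℕ} {g h : SpG n} (hg : Good k g) (hh : Good k h) : Good k (g * h) := by
  refine ⟨mul_mem hg.1 hh.1, fun i hi => ?_⟩
  rw [act_mul, act_mul, (hh.2 i hi).1, (hh.2 i hi).2, (hg.2 i hi).1, (hg.2 i hi).2]
  exact ⟨rfl, rfl⟩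

theorem good_tv {k : ℕ} {z : Vc n} (hz : KP k z) : Good k (tv z) := by
  refine ⟨tv_mem_HH z, fun i hi => ?_⟩
  rw [act_tv, act_tv, bf_single_inl, bf_single_inr, (hz i hi).1, (hz i hi).2]
  simp

theorem fix_ff {k : ℕ} {g : SpG n} (hg : FixB k g) (i : Fin n) (hi : i.val < k) :
    act g (Pi.single (Sum.inr i) 1 : Vc n) = Pi.single (Sum.inr i) 1 := (hg i hi).2

theorem fix_ee {k : ℕ} {g : SpG n} (hg : FixB k g) (i : Fin n) (hi : i.val < k) :
    act g (Pi.single (Sum.inl i) 1 : Vc n) = Pi.single (Sum.inl i) 1 := (hg i hi).1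

theorem KP_of_fix {k : ℕ} {g : SpG n} (hg : FixB k g) {x : Vc n} (hx : KP k x) : KP k (act g x) := by
  intro i hi
  constructor
  · rw [← bf_single_inr (act g x) i, ← fix_ff hg i hi, bf_act, bf_single_inr]
    exact (hx i hi).1
  · rw [← bf_single_inl (act g x) i, ← fix_ee hg i hi, bf_act, bf_single_inl]
    exact (hx i hi).2

/-- Sending one vector to another by a good element. -/
theorem trans_A {k : ℕ} {x t : Vc n} (hx : KP k x) (ht : KP k t) (hx0 : x ≠ 0) (ht0 : t ≠ 0) :
    ∃ h : SpG n, Good k h ∧ act h x = t := by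
  have step1 : ∀ {a b : Vc n}, KP k a → KP k b → bf a b = 1 → ∃ h : SpG n, Good k h ∧ act h a = b := by
    intro a b ha hb hab
    refine ⟨tv (a + b), good_tv (KP_add ha hb), ?_⟩
    rw [act_tv, bf_add_left, bf_self, zero_add, bf_comm, hab, one_smul, add_add_cancel']
  by_cases he : x = t
  · exact ⟨1, good_one k, by rw [act_one, he]⟩
  rcases z2_cases (bf x t) with h0 | h1
  · -- go through an intermediate vector
    have key : ∀ z : Vc n, KP k z → bf x z = 1 → bf t z = 1 → ∃ h : SpG n, Good k h ∧ act h x = t := by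
      intro z hz h1 h2
      obtain ⟨h₁, hg1, e1⟩ := step1 hx hz h1
      obtain ⟨h₂, hg2, e2⟩ := step1 hz ht (by rw [bf_comm]; exact h2)
      exact ⟨h₂ * h₁, good_mul hg2 hg1, by rw [act_mul, e1, e2]⟩
    obtain ⟨s1, s2, hs1, hs2, hz⟩ := exists_z hx0 ht0 he
    have kp1 := KP_single_swap hx ht hs1
    have kp2 := KP_single_swap hx ht hs2
    rcases hz with hz | hz
    · exact key _ kp1 hz.1 hz.2
    · exact key _ (KP_add kp1 kp2) hz.1 hz.2
  · exact step1 hx ht h1

/-- The main step: moving a hyperbolic pair back. -/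
theorem step_pair {k : ℕ} (hk : k < n) {x y : Vc n} (hx : KP k x) (hy : KP k y) (hxy : bf x y = 1) :
    ∃ h : SpG n, Good k h ∧ act h x = ee ⟨k, hk⟩ ∧ act h y = ff ⟨k, hk⟩ := by
  let e : Vc n := ee ⟨k, hk⟩
  let f : Vc n := ff ⟨k, hk⟩
  have he : KP k e := by
    intro i hi
    have hne : i ≠ ⟨k, hk⟩ := fun h => by
      rw [h] at hi
      exact lt_irrefl _ hi
    refine ⟨?_, ?_⟩
    · show (Pi.single (Sum.inl ⟨k, hk⟩) 1 : Vc n) (Sum.inl i) = 0
      rw [Pi.single_apply, if_neg]
      intro h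
      exact hne (Sum.inl.inj h)
    · show (Pi.single (Sum.inl ⟨k, hk⟩) 1 : Vc n) (Sum.inr i) = 0
      rw [Pi.single_apply, if_neg]
      simp
  have hf : KP k f := by
    intro i hi
    have hne : i ≠ ⟨k, hk⟩ := fun h => by
      rw [h] at hi
      exact lt_irrefl _ hi
    refine ⟨?_, ?_⟩
    · show (Pi.single (Sum.inr ⟨k, hk⟩) 1 : Vc n) (Sum.inl i) = 0
      rw [Pi.single_apply, if_neg]
      simp
    · show (Pi.single (Sum.inr ⟨k, hk⟩) 1 : Vc n) (Sum.inr i) = 0
      rw [Pi.single_apply, if_neg]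
      intro h
      exact hne (Sum.inr.inj h)
  have hef : bf e f = 1 := by
    show bf (Pi.single (Sum.inl ⟨k, hk⟩) 1 : Vc n) (Pi.single (Sum.inr ⟨k, hk⟩) 1) = 1
    rw [bf_single_inr]
    simp
  have hfe : bf f e = 1 := by rw [bf_comm]; exact hef
  have hx0 : x ≠ 0 := by
    rintro rfl
    rw [bf_zero_left] at hxy
    exact absurd hxy (by decide)
  have he0 : e ≠ 0 := by
    intro h
    rw [h, bf_zero_left] at hef
    exact absurd hef (by decide)
  obtain ⟨h₁, hg1, e1⟩ := trans_A hx he hx0 he0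
  let y' := act h₁ y
  have hy' : KP k y' := KP_of_fix hg1.2 hy
  have hey' : bf e y' = 1 := by
    show bf e (act h₁ y) = 1
    rw [← e1, bf_act]
    exact hxy
  -- second step fixing e
  have hstep : ∃ h₂ : SpG n, Good k h₂ ∧ act h₂ e = e ∧ act h₂ y' = f := by
    by_cases hyf : y' = f
    · exact ⟨1, good_one k, act_one _, by rw [act_one, hyf]⟩
    rcases z2_cases (bf y' f) with h0 | h1
    · let z := e + f
      have hz : KP k z := KP_add he hf
      have hh1 : bf (y' + z) y' = 1 := by
        show bf (y' + (e + f)) y' = 1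
        rw [bf_add_left, bf_self, zero_add, bf_add_left, hey', bf_comm f, h0, add_zero]
      have hh2 : bf (y' + z) e = 0 := by
        show bf (y' + (e + f)) e = 0
        rw [bf_add_left, bf_add_left, bf_self, hfe, zero_add, bf_comm y', hey']
        exact z2_add_self 1
      refine ⟨tv e * tv (y' + z), good_mul (good_tv he) (good_tv (KP_add hy' hz)), ?_, ?_⟩
      · rw [act_mul, act_tv (y' + z) e, hh2, zero_smul, add_zero, act_tv e e, bf_self, zero_smul, add_zero]
      · rw [act_mul, act_tv (y' + z) y', hh1, one_smul, add_add_cancel', act_tv]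
        show (e + f) + bf e (e + f) • e = f
        rw [bf_add_right, bf_self, hef, zero_add, one_smul, add_comm e f, add_assoc, vec_add_self, add_zero]
    · refine ⟨tv (y' + f), good_tv (KP_add hy' hf), ?_, ?_⟩
      · rw [act_tv, bf_add_left, bf_comm y', hey', hfe, z2_add_self 1, zero_smul, add_zero]
      · rw [act_tv, bf_add_left, bf_self, zero_add, bf_comm f, h1, one_smul, add_add_cancel']
  obtain ⟨h₂, hg2, e2, e3⟩ := hstep
  refine ⟨h₂ * h₁, good_mul hg2 hg1, ?_, ?_⟩
  · rw [act_mul, e1, e2]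
  · rw [act_mul]
    exact e3

theorem closure_top : HH n = ⊤ := by
  rw [eq_top_iff]
  intro g _
  have key : ∀ (m k : ℕ), k + m = n → ∀ g : SpG n, FixB k g → g ∈ HH n := by
    intro m
    induction m with
    | zero =>
      intro k hk g hg
      have hk' : k = n := by omega
      subst hk'
      have h1 : g = 1 := by
        apply Subtype.ext
        ext s t
        have h2 : act g (Pi.single t 1) = Pi.single t 1 := by
          rcases t with i | i
          · exact (hg i i.2).1
          · exact (hg i i.2).2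
        have h3 := congrFun h2 s
        have h4 : ((g : Mt k) *ᵥ (Pi.single t 1 : Vc k)) s = (g : Mt k) s t := by
          simp [Matrix.mulVec_single_one]
        show (g : Mt k) s t = (1 : Mt k) s t
        rw [← h4]
        refine h3.trans ?_
        rw [Matrix.one_apply, Pi.single_apply]
      rw [h1]
      exact one_mem _
    | succ m ih =>
      intro k hk g hg
      have hkn : k < n := by omega
      let x := act g (ee ⟨k, hkn⟩)
      let y := act g (ff ⟨k, hkn⟩)
      have hperp : ∀ i : Fin n, i.val < k → (i ≠ ⟨k, hkn⟩) := fun i hi h => by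
        rw [h] at hi
        exact lt_irrefl _ hi
      have hxk : KP k x := by
        intro i hi
        have hne := hperp i hi
        constructor
        · show act g (ee ⟨k, hkn⟩) (Sum.inl i) = 0
          rw [← bf_single_inr (act g (ee ⟨k, hkn⟩)) i, ← fix_ff hg i hi, bf_act, bf_single_inr]
          show (Pi.single (Sum.inl ⟨k, hkn⟩) 1 : Vc n) (Sum.inl i) = 0
          rw [Pi.single_apply, if_neg]
          intro h
          exact hne (Sum.inl.inj h)
        · show act g (ee ⟨k, hkn⟩) (Sum.inr i) = 0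
          rw [← bf_single_inl (act g (ee ⟨k, hkn⟩)) i, ← fix_ee hg i hi, bf_act, bf_single_inl]
          show (Pi.single (Sum.inl ⟨k, hkn⟩) 1 : Vc n) (Sum.inr i) = 0
          rw [Pi.single_apply, if_neg]
          simp
      have hyk : KP k y := by
        intro i hi
        have hne := hperp i hi
        constructor
        · show act g (ff ⟨k, hkn⟩) (Sum.inl i) = 0
          rw [← bf_single_inr (act g (ff ⟨k, hkn⟩)) i, ← fix_ff hg i hi, bf_act, bf_single_inr]
          show (Pi.single (Sum.inr ⟨k, hkn⟩) 1 : Vc n) (Sum.inl i) = 0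
          rw [Pi.single_apply, if_neg]
          simp
        · show act g (ff ⟨k, hkn⟩) (Sum.inr i) = 0
          rw [← bf_single_inl (act g (ff ⟨k, hkn⟩)) i, ← fix_ee hg i hi, bf_act, bf_single_inl]
          show (Pi.single (Sum.inr ⟨k, hkn⟩) 1 : Vc n) (Sum.inr i) = 0
          rw [Pi.single_apply, if_neg]
          intro h
          exact hne (Sum.inr.inj h)
      have hxy : bf x y = 1 := by
        show bf (act g _) (act g _) = 1
        rw [bf_act, bf_single_inr]
        simp
      obtain ⟨h, hgood, e1, e2⟩ := step_pair hkn hxk hyk hxy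
      have hfix : FixB (k + 1) (h * g) := by
        intro i hi
        by_cases hik : i.val < k
        · rw [act_mul, act_mul, (hg i hik).1, (hg i hik).2, (hgood.2 i hik).1, (hgood.2 i hik).2]
          exact ⟨rfl, rfl⟩
        · have hieq : i = ⟨k, hkn⟩ := Fin.ext (by show i.val = k; omega)
          rw [hieq, act_mul, act_mul]
          exact ⟨e1, e2⟩
      have h2 := ih (k + 1) (by omega) (h * g) hfix
      have e3 : g = h⁻¹ * (h * g) := by group
      rw [e3]
      exact mul_mem (inv_mem hgood.1) h2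
  exact key n 0 (by omega) g (fun i hi => absurd hi (Nat.not_lt_zero _))

/-- All transvections are conjugate. -/
theorem conj_exists {u v : Vc n} (hu : u ≠ 0) (hv : v ≠ 0) : ∃ g : SpG n, act g u = v := by
  have step1 : ∀ {a b : Vc n}, bf a b = 1 → ∃ h : SpG n, act h a = b := by
    intro a b hab
    refine ⟨tv (a + b), ?_⟩
    rw [act_tv, bf_add_left, bf_self, zero_add, bf_comm, hab, one_smul, add_add_cancel']
  by_cases he : u = v
  · exact ⟨1, by rw [act_one, he]⟩
  rcases z2_cases (bf u v) with h0 | h1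
  · have key : ∀ z : Vc n, bf u z = 1 → bf v z = 1 → ∃ h : SpG n, act h u = v := by
      intro z h1 h2
      obtain ⟨h₁, e1⟩ := step1 h1
      obtain ⟨h₂, e2⟩ := step1 (a := z) (b := v) (by rw [bf_comm]; exact h2)
      exact ⟨h₂ * h₁, by rw [act_mul, e1, e2]⟩
    obtain ⟨s1, s2, _, _, hz⟩ := exists_z hu hv he
    rcases hz with hz | hz
    · exact key _ hz.1 hz.2
    · exact key _ hz.1 hz.2
  · exact step1 h1

theorem main_0440 (hn : 1 ≤ n) : IsThreeTranspositionClass (DD n) := by
  refine ⟨⟨?_, ?_⟩, ?_, closure_top⟩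
  · intro d hd
    obtain ⟨v, hv, rfl⟩ := mem_DD_iff.mp hd
    exact order_tv hv
  · intro d hd e he
    obtain ⟨u, hu, rfl⟩ := mem_DD_iff.mp hd
    obtain ⟨v, hv, rfl⟩ := mem_DD_iff.mp he
    rcases z2_cases (bf u v) with h | h
    · exact Or.inl (sq_tv h)
    · exact Or.inr (cube_tv h)
  · let e0 : Vc n := ee ⟨0, hn⟩
    have he0 : e0 ≠ 0 := by
      intro h
      have h1 := congrFun h (Sum.inl ⟨0, hn⟩)
      simp [e0] at h1
    refine ⟨tv e0, tv_mem he0, ?_⟩
    ext g
    constructor
    · intro hg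
      obtain ⟨v, hv, rfl⟩ := mem_DD_iff.mp hg
      obtain ⟨h, hh⟩ := conj_exists he0 hv
      refine isConj_iff.mpr ⟨h, ?_⟩
      rw [conj_tv, hh]
    · intro hg
      obtain ⟨h, rfl⟩ := isConj_iff.mp hg
      rw [conj_tv]
      exact tv_mem (act_ne_zero h he0)

end CfsgLib.Sp2
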